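import Mathlib
import Cfsg.Agent.S4209

/-!
# HKK (S3779) wave 3, group side: the factors of the lower central series and the bracket
induced by commutators (helper81)
-/

set_option autoImplicit false
set_option linter.unusedSectionVars false

namespace Cfsg.Agent.Lib.Helper81.HKK

open scoped commutatorElement

universe u

variable (G : Type u) [Group G]

/-- the lower central series, `Gam 0 = ⊤` -/
abbrev Gam (k : ℕ) : Subgroup G := (⊤ : Subgroup G).lowerCentralSeries k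

instance Gam_normal (k : ℕ) : (Gam G k).Normal := inferInstance

variable {G}

theorem Gam_anti {i j : ℕ} (h : i ≤ j) : Gam G j ≤ Gam G i :=
  Subgroup.lowerCentralSeries_antitone _ h

variable [Finite G]

theorem comm_mem {i j : ℕ} {x y : G} (hx : x ∈ Gam G i) (hy : y ∈ Gam G j) :
    ⁅x, y⁆ ∈ Gam G (i + j + 1) :=
  Cfsg.Agent.S4209.lcs_comm_le ⊤ i j (Subgroup.commutator_mem_commutator hx hy)

theorem comm_mem' {i j k : ℕ} (h : i + j + 1 = k) {x y : G} (hx : x ∈ Gam G i)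
    (hy : y ∈ Gam G j) : ⁅x, y⁆ ∈ Gam G k := h ▸ comm_mem hx hy

variable (G)

/-- the factor `Gam k / Gam (k+1)` -/
abbrev Q (k : ℕ) : Type u := Gam G k ⧸ (Gam G (k + 1)).subgroupOf (Gam G k)

instance Q_commGroup (k : ℕ) : CommGroup (Q G k) :=
  { (inferInstance : Group (Q G k)) with
    mul_comm := by
      intro a b
      obtain ⟨x, rfl⟩ := QuotientGroup.mk_surjective a
      obtain ⟨y, rfl⟩ := QuotientGroup.mk_surjective b
      rw [← QuotientGroup.mk_mul, ← QuotientGroup.mk_mul, QuotientGroup.eq,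
        Subgroup.mem_subgroupOf]
      have h1 : ⁅(y : G)⁻¹, (x : G)⁻¹⁆ ∈ Gam G (k + k + 1) :=
        comm_mem (inv_mem y.2) (inv_mem x.2)
      have h2 : (((x * y)⁻¹ * (y * x) : Gam G k) : G) = ⁅(y : G)⁻¹, (x : G)⁻¹⁆ := by
        simp only [Subgroup.coe_mul, Subgroup.coe_inv, commutatorElement_def]
        group
      rw [h2]
      exact Gam_anti (by omega) h1 }

/-- the additive factor -/
def A (k : ℕ) : Type u := Additive (Q G k)

instance A_addCommGroup (k : ℕ) : AddCommGroup (A G k) :=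
  inferInstanceAs (AddCommGroup (Additive (Q G k)))

instance A_finite (k : ℕ) : Finite (A G k) :=
  inferInstanceAs (Finite (Additive (Q G k)))

variable {G}

/-- the class of an element of `Gam k` -/
def cl (k : ℕ) (g : G) (hg : g ∈ Gam G k) : A G k :=
  Additive.ofMul (QuotientGroup.mk (⟨g, hg⟩ : Gam G k) : Q G k)

theorem cl_surj {k : ℕ} (a : A G k) : ∃ (g : G) (hg : g ∈ Gam G k), cl k g hg = a := by
  obtain ⟨x, hx⟩ := QuotientGroup.mk_surjective (Additive.toMul a : Q G k)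
  exact ⟨x.1, x.2, congrArg Additive.ofMul hx⟩

theorem cl_congr {k : ℕ} {g g' : G} (h : g = g') (hg : g ∈ Gam G k) :
    cl k g hg = cl k g' (h ▸ hg) := by
  subst h; rfl

theorem cl_mul {k : ℕ} {x y : G} (hx : x ∈ Gam G k) (hy : y ∈ Gam G k) :
    cl k (x * y) (mul_mem hx hy) = cl k x hx + cl k y hy := rfl

theorem cl_one (k : ℕ) : cl k (1 : G) (one_mem _) = 0 := rfl

theorem cl_inv {k : ℕ} {x : G} (hx : x ∈ Gam G k) : cl k x⁻¹ (inv_mem hx) = - cl k x hx := rfl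

theorem cl_eq_iff {k : ℕ} {x y : G} (hx : x ∈ Gam G k) (hy : y ∈ Gam G k) :
    cl k x hx = cl k y hy ↔ x⁻¹ * y ∈ Gam G (k + 1) := by
  have h1 : cl k x hx = cl k y hy ↔
      (QuotientGroup.mk (⟨x, hx⟩ : Gam G k) : Q G k) = QuotientGroup.mk (⟨y, hy⟩ : Gam G k) :=
    ⟨fun h => Additive.ofMul.injective h, fun h => congrArg Additive.ofMul h⟩
  rw [h1, QuotientGroup.eq, Subgroup.mem_subgroupOf]
  rfl

theorem cl_eq_zero_iff {k : ℕ} {x : G} (hx : x ∈ Gam G k) :
    cl k x hx = 0 ↔ x ∈ Gam G (k + 1) := by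
  rw [← cl_one k, eq_comm, cl_eq_iff (one_mem _) hx, inv_one, one_mul]

theorem cl_conj {k : ℕ} (g : G) {c : G} (hc : c ∈ Gam G k) :
    cl k (g * c * g⁻¹) ((Gam_normal G k).conj_mem c hc g) = cl k c hc := by
  rw [eq_comm, cl_eq_iff]
  have hg0 : g ∈ Gam G 0 := Subgroup.mem_top g
  have h1 : ⁅c⁻¹, g⁆ ∈ Gam G (k + 0 + 1) := comm_mem (i := k) (j := 0) (inv_mem hc) hg0
  have h2 : c⁻¹ * (g * c * g⁻¹) = ⁅c⁻¹, g⁆ := by
    rw [commutatorElement_def]; group
  rw [h2]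
  exact h1

/-- commutators are additive in the first variable modulo the next term -/
theorem cl_comm_mul_left {i j k : ℕ} (h : i + j + 1 = k) {x x' y : G} (hx : x ∈ Gam G i)
    (hx' : x' ∈ Gam G i) (hy : y ∈ Gam G j) :
    cl k ⁅x * x', y⁆ (comm_mem' h (mul_mem hx hx') hy)
      = cl k ⁅x, y⁆ (comm_mem' h hx hy) + cl k ⁅x', y⁆ (comm_mem' h hx' hy) := by
  have e : ⁅x * x', y⁆ = (x * ⁅x', y⁆ * x⁻¹) * ⁅x, y⁆ := by
    simp only [commutatorElement_def]; group
  rw [cl_congr e, cl_mul ((Gam_normal G k).conj_mem _ (comm_mem' h hx' hy) x) (comm_mem' h hx hy),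
    cl_conj, add_comm]

theorem cl_comm_mul_right {i j k : ℕ} (h : i + j + 1 = k) {x y y' : G} (hx : x ∈ Gam G i)
    (hy : y ∈ Gam G j) (hy' : y' ∈ Gam G j) :
    cl k ⁅x, y * y'⁆ (comm_mem' h hx (mul_mem hy hy'))
      = cl k ⁅x, y⁆ (comm_mem' h hx hy) + cl k ⁅x, y'⁆ (comm_mem' h hx hy') := by
  have e : ⁅x, y * y'⁆ = ⁅x, y⁆ * (y * ⁅x, y'⁆ * y⁻¹) := by
    simp only [commutatorElement_def]; group
  rw [cl_congr e, cl_mul (comm_mem' h hx hy) ((Gam_normal G k).conj_mem _ (comm_mem' h hx hy') y),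
    cl_conj]

/-- the class of a commutator only depends on the classes -/
theorem cl_comm_congr {i j k : ℕ} (h : i + j + 1 = k) {x x' y y' : G} (hx : x ∈ Gam G i)
    (hx' : x' ∈ Gam G i) (hy : y ∈ Gam G j) (hy' : y' ∈ Gam G j)
    (ex : cl i x hx = cl i x' hx') (ey : cl j y hy = cl j y' hy') :
    cl k ⁅x, y⁆ (comm_mem' h hx hy) = cl k ⁅x', y'⁆ (comm_mem' h hx' hy') := by
  rw [cl_eq_iff] at ex ey
  have h1 : cl k ⁅x', y⁆ (comm_mem' h hx' hy) = cl k ⁅x, y⁆ (comm_mem' h hx hy) := by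
    have e : x' = x * (x⁻¹ * x') := by group
    have hn : x⁻¹ * x' ∈ Gam G i := mul_mem (inv_mem hx) hx'
    rw [cl_congr (congrArg (fun t => ⁅t, y⁆) e), cl_comm_mul_left h hx hn hy]
    have : cl k ⁅x⁻¹ * x', y⁆ (comm_mem' h hn hy) = 0 := by
      rw [cl_eq_zero_iff]
      exact comm_mem' (by omega) ex hy
    rw [this, add_zero]
  have h2 : cl k ⁅x', y'⁆ (comm_mem' h hx' hy') = cl k ⁅x', y⁆ (comm_mem' h hx' hy) := by
    have e : y' = y * (y⁻¹ * y') := by group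
    have hn : y⁻¹ * y' ∈ Gam G j := mul_mem (inv_mem hy) hy'
    rw [cl_congr (congrArg (fun t => ⁅x', t⁆) e), cl_comm_mul_right h hx' hy hn]
    have : cl k ⁅x', y⁻¹ * y'⁆ (comm_mem' h hx' hn) = 0 := by
      rw [cl_eq_zero_iff]
      exact comm_mem' (by omega) hx' ey
    rw [this, add_zero]
  rw [h2, h1]

end Cfsg.Agent.Lib.Helper81.HKK
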